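-- OTSP (S5973) package [TWO]: the r = 2 slice, from the mini project TWOP.
import Mathlib
import Cfsg.Agent.Lib.Helper99.OTSP.Defs
import Cfsg.Agent.Lib.Helper37.TwoP.Main

set_option autoImplicit false

namespace Cfsg.Agent.Lib.Helper37.OTSP

universe u

/-- **[TWO]** -/
theorem pkgTwo : Cfsg.Agent.Lib.Helper99.OTSP.PkgTwo.{u} := by
  intro F _ _ d m hodd hd hm hmd
  exact Cfsg.Agent.Lib.Helper37.TwoP.twoPlus d m hodd (by omega) hm hmd

end Cfsg.Agent.Lib.Helper37.OTSP
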